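import Mathlib

set_option autoImplicit false

/-! Interface of the team project NF3 = conditional core of S0689 (the hub is the statement
of S0690).  One `Prop` per package. -/

namespace Cfsg.Agent.Lib.Helper77.NF3

universe u

/-- `SL(2,5)` -/
abbrev SL25 : Type := Matrix.SpecialLinearGroup (Fin 2) (ZMod 5)

/-- the hub: the literal statement of S0690 (at universe `u`) -/
def HubZ : Prop :=
  ∀ (K : Type u) [Group K] [Finite K] (G : Subgroup (MulAut K)),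
    (∀ φ ∈ G, φ ≠ 1 → ∀ k : K, φ k = k → k = 1) → commutator G = ⊤ → G ≠ ⊥ →
    Nonempty (G ≃* Matrix.SpecialLinearGroup (Fin 2) (ZMod 5))

/-- [AUT] the automorphism group of `SL(2,5)` has order at most `120` -/
def PkgAut : Prop := Nat.card (MulAut SL25) ≤ 120

/-- [CARD] a regular group has `|V| - 1` elements, and `|V|` is a power of `p` -/
def PkgCard : Prop :=
  ∀ {p : ℕ} [Fact p.Prime] {V : Type u} [AddCommGroup V] [Module (ZMod p) V] [Finite V]
    (H : Subgroup (V ≃ₗ[ZMod p] V)),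
    (∀ v w : V, v ≠ 0 → w ≠ 0 → ∃! h : H, (h : V ≃ₗ[ZMod p] V) v = w) → Nontrivial V →
    Nat.card H + 1 = Nat.card V ∧ ∃ n : ℕ, Nat.card V = p ^ n

/-- [RES] the perfect residual of a non-solvable regular group is a normal `SL(2,5)` -/
def PkgRes : Prop :=
  ∀ {p : ℕ} [Fact p.Prime] {V : Type u} [AddCommGroup V] [Module (ZMod p) V] [Finite V]
    (H : Subgroup (V ≃ₗ[ZMod p] V)),
    (∀ v w : V, v ≠ 0 → w ≠ 0 → ∃! h : H, (h : V ≃ₗ[ZMod p] V) v = w) →
    ¬ Group.IsSolvable H → HubZ.{u} →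
    ∃ N : Subgroup H, N.Normal ∧ Nonempty (N ≃* SL25)

/-- [FLD] Schur + little Wedderburn: the centralizer ring of a non-abelian normal subgroup of
a regular group is a finite field `F`; `V` is an `F`-vector space on which `N` acts
`F`-linearly and `C_H(N)` acts by scalars. -/
def PkgFld : Prop :=
  ∀ {p : ℕ} [Fact p.Prime] {V : Type u} [AddCommGroup V] [Module (ZMod p) V] [Finite V]
    (H : Subgroup (V ≃ₗ[ZMod p] V)),
    (∀ v w : V, v ≠ 0 → w ≠ 0 → ∃! h : H, (h : V ≃ₗ[ZMod p] V) v = w) →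
    ∀ N : Subgroup H, N.Normal → ¬ IsMulCommutative N →
    ∃ (F : Type u) (_ : Field F) (_ : Finite F) (_ : Module F V),
      (∀ n ∈ N, ∀ (a : F) (v : V),
        ((n : H) : V ≃ₗ[ZMod p] V) (a • v) = a • ((n : H) : V ≃ₗ[ZMod p] V) v) ∧
      (∀ c ∈ Subgroup.centralizer (N : Set H), ∃ a : F, ∀ v : V,
        ((c : H) : V ≃ₗ[ZMod p] V) v = a • v)

/-- [DIM] with the field of [FLD]: `|V| = q ^ d`, `d ≥ 2`, and `C_H(N)` is cyclic of order
dividing `q - 1`. -/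
def PkgDim : Prop :=
  ∀ {p : ℕ} [Fact p.Prime] {V : Type u} [AddCommGroup V] [Module (ZMod p) V] [Finite V]
    (H : Subgroup (V ≃ₗ[ZMod p] V)),
    (∀ v w : V, v ≠ 0 → w ≠ 0 → ∃! h : H, (h : V ≃ₗ[ZMod p] V) v = w) →
    ∀ N : Subgroup H, ¬ IsMulCommutative N →
    ∀ (F : Type u) [Field F] [Finite F] [Module F V],
      (∀ n ∈ N, ∀ (a : F) (v : V),
        ((n : H) : V ≃ₗ[ZMod p] V) (a • v) = a • ((n : H) : V ≃ₗ[ZMod p] V) v) →
      (∀ c ∈ Subgroup.centralizer (N : Set H), ∃ a : F, ∀ v : V,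
        ((c : H) : V ≃ₗ[ZMod p] V) v = a • v) →
      ∃ q d : ℕ, 2 ≤ d ∧ Nat.card V = q ^ d ∧
        Nat.card (Subgroup.centralizer (N : Set H)) ∣ q - 1 ∧
        IsCyclic (Subgroup.centralizer (N : Set H))

/-- [IDX] pure group theory: `|H : C_H(N)|` is `60` or `120` for a normal `N ≅ SL(2,5)`, and
`|C_H(N)|` is even. -/
def PkgIdx : Prop :=
  ∀ {H : Type u} [Group H] [Finite H] (N : Subgroup H), N.Normal → Nonempty (N ≃* SL25) →
    PkgAut →
    (∃ e : ℕ, (e = 60 ∨ e = 120) ∧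
      Nat.card H = Nat.card (Subgroup.centralizer (N : Set H)) * e) ∧
    2 ∣ Nat.card (Subgroup.centralizer (N : Set H))

/-- [NO3] in a regular group, `3` does not divide `|C_H(N)|` for `N ≅ SL(2,5)`. -/
def PkgNo3 : Prop :=
  ∀ {p : ℕ} [Fact p.Prime] {V : Type u} [AddCommGroup V] [Module (ZMod p) V] [Finite V]
    (H : Subgroup (V ≃ₗ[ZMod p] V)),
    (∀ v w : V, v ≠ 0 → w ≠ 0 → ∃! h : H, (h : V ≃ₗ[ZMod p] V) v = w) →
    ∀ N : Subgroup H, Nonempty (N ≃* SL25) →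
    ¬ 3 ∣ Nat.card (Subgroup.centralizer (N : Set H))

/-- [NUM] the arithmetic. -/
def PkgNum : Prop :=
  ∀ (p q d c e n : ℕ), p.Prime → 2 ≤ d → q ^ d = p ^ n → c ∣ q - 1 → (e = 60 ∨ e = 120) →
    q ^ d - 1 = c * e → 2 ∣ c → ¬ 3 ∣ c →
    d = 2 ∧ e = 60 ∧ ((q = 11 ∧ c = 2) ∨ (q = 29 ∧ c = 14) ∨ (q = 59 ∧ c = 58))

/-- [FIN] pure group theory: `H = N × M`. -/
def PkgFin : Prop :=
  ∀ {H : Type u} [Group H] [Finite H] (N : Subgroup H), N.Normal → Nonempty (N ≃* SL25) →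
    IsCyclic (Subgroup.centralizer (N : Set H)) →
    ∀ m : ℕ, Odd m → Nat.card (Subgroup.centralizer (N : Set H)) = 2 * m →
      Nat.card H = 120 * m →
      Nonempty (H ≃* SL25 × Multiplicative (ZMod m))

end Cfsg.Agent.Lib.Helper77.NF3
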