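import Mathlib
import Cfsg.Agent.Lib.Helper77.NF3.Defs
import Cfsg.Agent.S0684

set_option autoImplicit false

/-! Assembly of the conditional core of S0689 from the packages of `NF3.Defs`. -/

namespace Cfsg.Agent.Lib.Helper77.NF3

universe u

theorem not_comm_SL25 : ¬ ∀ a b : SL25, a * b = b * a := by
  intro h
  have h1 := h ⟨!![0, -1; 1, -1], by decide⟩ ⟨!![1, 1; 0, 1], by decide⟩
  revert h1
  decide +kernel

/-- the conditional core of S0689 -/
theorem s0689_of (hub : HubZ.{u}) (hAut : PkgAut) (hCard : PkgCard.{u}) (hRes : PkgRes.{u})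
    (hFld : PkgFld.{u}) (hDim : PkgDim.{u}) (hIdx : PkgIdx.{u}) (hNo3 : PkgNo3.{u})
    (hNum : PkgNum) (hFin : PkgFin.{u})
    {p : ℕ} [Fact p.Prime] {V : Type u} [AddCommGroup V] [Module (ZMod p) V] [Finite V]
    (H : Subgroup (V ≃ₗ[ZMod p] V))
    (hreg : ∀ v w : V, v ≠ 0 → w ≠ 0 → ∃! h : H, (h : V ≃ₗ[ZMod p] V) v = w)
    (hsolv : ¬ Group.IsSolvable H) :
    (Nat.card V = 121 ∧ Nonempty (H ≃* Matrix.SpecialLinearGroup (Fin 2) (ZMod 5))) ∨
    (Nat.card V = 841 ∧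
      Nonempty (H ≃* Matrix.SpecialLinearGroup (Fin 2) (ZMod 5) × Multiplicative (ZMod 7))) ∨
    (Nat.card V = 3481 ∧
      Nonempty (H ≃* Matrix.SpecialLinearGroup (Fin 2) (ZMod 5) × Multiplicative (ZMod 29))) := by
  classical
  have hfinGL : Finite (V ≃ₗ[ZMod p] V) := Cfsg.Agent.S0684.finite_linEquiv
  have hnt : Nontrivial V := by
    by_contra hnt
    rw [not_nontrivial_iff_subsingleton] at hnt
    apply hsolv
    have h1 : Subsingleton (V ≃ₗ[ZMod p] V) :=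
      ⟨fun a b => LinearEquiv.ext fun v => Subsingleton.elim _ _⟩
    have h2 : Subsingleton H := inferInstance
    exact Group.isSolvable_of_comm fun a b => Subsingleton.elim _ _
  obtain ⟨hHV, n, hVn⟩ := hCard H hreg hnt
  obtain ⟨N, hNn, ⟨eN⟩⟩ := hRes H hreg hsolv hub
  have hNna : ¬ IsMulCommutative N := by
    intro hc
    apply not_comm_SL25
    intro a b
    have h1 := hc.is_comm.comm (eN.symm a) (eN.symm b)
    have h2 := congrArg eN h1
    simpa using h2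
  obtain ⟨F, iF, iFin, iMod, h1, h2⟩ := hFld H hreg N hNn hNna
  obtain ⟨q, d, hd, hVq, hCq, hCcyc⟩ := hDim H hreg N hNna F h1 h2
  obtain ⟨⟨e, he, hHe⟩, h2C⟩ := hIdx N hNn ⟨eN⟩ hAut
  have h3C := hNo3 H hreg N ⟨eN⟩
  have hq1 : q ^ d - 1 = Nat.card (Subgroup.centralizer (N : Set H)) * e := by
    rw [← hVq, ← hHV, ← hHe]
    simp
  obtain ⟨hd2, he60, hcases⟩ :=
    hNum p q d _ e n Fact.out hd (hVq.symm.trans hVn) hCq he hq1 h2C h3C
  subst hd2 he60
  rcases hcases with ⟨hq, hc2⟩ | ⟨hq, hc2⟩ | ⟨hq, hc2⟩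
  · left
    refine ⟨by rw [hVq, hq]; norm_num, ?_⟩
    obtain ⟨f⟩ := hFin N hNn ⟨eN⟩ hCcyc 1 (by decide) (by rw [hc2]) (by rw [hHe, hc2])
    have hs : Subsingleton (Multiplicative (ZMod 1)) :=
      inferInstanceAs (Subsingleton (Fin 1))
    have hu : Unique (Multiplicative (ZMod 1)) := ⟨⟨1⟩, fun a => Subsingleton.elim _ _⟩
    exact ⟨f.trans MulEquiv.prodUnique⟩
  · right; left
    refine ⟨by rw [hVq, hq]; norm_num, ?_⟩
    exact hFin N hNn ⟨eN⟩ hCcyc 7 (by decide) (by rw [hc2]) (by rw [hHe, hc2])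
  · right; right
    refine ⟨by rw [hVq, hq]; norm_num, ?_⟩
    exact hFin N hNn ⟨eN⟩ hCcyc 29 (by decide) (by rw [hc2]) (by rw [hHe, hc2])

end Cfsg.Agent.Lib.Helper77.NF3
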