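import Mathlib
import Cfsg.Agent.Lib.Helper77.NF3.Defs
import Cfsg.Agent.Lib.Helper5.Pres120
import Cfsg.Agent.Lib.Helper41.PSL2Rigid

set_option autoImplicit false

namespace Cfsg.Agent.Lib.Helper77.NF3

open Matrix Cfsg.Agent.Lib.Helper5.Pres120

theorem card_center_SL25 : Nat.card (Subgroup.center SL25) = 2 := by
  have hp : Fact (Nat.Prime 5) := ⟨by norm_num⟩
  have e := Matrix.SpecialLinearGroup.center_equiv_rootsOfUnity' (n := Fin 2) (R := ZMod 5) 0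
  rw [Nat.card_congr e.toEquiv]
  have h : IsPrimitiveRoot (-1 : ZMod 5) 2 := IsPrimitiveRoot.neg_one 5 (by norm_num)
  have h2 := h.card_rootsOfUnity
  simpa using h2

/-- the group-theoretic trace code on raw matrices -/
def tauM (M : Matrix (Fin 2) (Fin 2) (ZMod 5)) : ZMod 5 :=
  if M * M = -1 then 0 else if M ^ 3 = 1 ∧ M ≠ 1 then 4
  else if (-M) ^ 3 = 1 ∧ -M ≠ 1 then 1 else if M ^ 5 = 1 then 2 else 3

set_option maxRecDepth 100000 in
theorem tauM_eq : ∀ a b c d : ZMod 5, a * d - b * c = 1 → tauM !![a, b; c, d] = a + d := by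
  decide +kernel

set_option maxRecDepth 100000 in
theorem invol_raw : ∀ a b c d : ZMod 5, a * d - b * c = 1 →
    !![a, b; c, d] * !![a, b; c, d] = (1 : Matrix (Fin 2) (Fin 2) (ZMod 5)) →
    !![a, b; c, d] ≠ (1 : Matrix (Fin 2) (Fin 2) (ZMod 5)) →
    !![a, b; c, d] = (-1 : Matrix (Fin 2) (Fin 2) (ZMod 5)) := by
  decide +kernel

/-- the central involution of `SL(2,5)` -/
def zz : SL25 := ⟨-1, by decide⟩

theorem zz_coe : zz.1 = (-1 : Matrix (Fin 2) (Fin 2) (ZMod 5)) := rfl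

theorem eta_SL25 (g : SL25) :
    g.1 = !![g.1 0 0, g.1 0 1; g.1 1 0, g.1 1 1] ∧ g.1 0 0 * g.1 1 1 - g.1 0 1 * g.1 1 0 = 1 := by
  refine ⟨Matrix.eta_fin_two g.1, ?_⟩
  have h := g.2
  rw [Matrix.det_fin_two] at h
  exact h

theorem invol_unique (w : SL25) (h1 : w * w = 1) (h2 : w ≠ 1) : w = zz := by
  obtain ⟨hw, hdet⟩ := eta_SL25 w
  apply Subtype.ext
  rw [zz_coe, hw]
  apply invol_raw _ _ _ _ hdet
  · rw [← hw]
    have := congrArg Subtype.val h1
    simpa using this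
  · rw [← hw]
    intro h
    apply h2
    apply Subtype.ext
    simpa using h

/-- the group-theoretic trace code -/
def tau (g : SL25) : ZMod 5 :=
  if g * g = zz then 0 else if g ^ 3 = 1 ∧ g ≠ 1 then 4
  else if (zz * g) ^ 3 = 1 ∧ zz * g ≠ 1 then 1 else if g ^ 5 = 1 then 2 else 3

theorem coe_eq_iff (g h : SL25) : g = h ↔ g.1 = h.1 := Subtype.ext_iff

theorem tau_eq (g : SL25) : tau g = g.1.trace := by
  have h1 : tau g = tauM g.1 := by
    unfold tau tauM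
    have e1 : (g * g = zz) ↔ (g.1 * g.1 = -1) := by
      rw [coe_eq_iff, zz_coe]; rfl
    have e2 : (g ^ 3 = 1) ↔ (g.1 ^ 3 = 1) := by
      rw [coe_eq_iff]; simp
    have e3 : (g = 1) ↔ (g.1 = 1) := by
      rw [coe_eq_iff]; simp
    have e4 : ((zz * g) ^ 3 = 1) ↔ ((-g.1) ^ 3 = 1) := by
      rw [coe_eq_iff]; simp [zz_coe]
    have e5 : (zz * g = 1) ↔ (-g.1 = 1) := by
      rw [coe_eq_iff]; simp [zz_coe]
    have e6 : (g ^ 5 = 1) ↔ (g.1 ^ 5 = 1) := by
      rw [coe_eq_iff]; simp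
    simp only [e1, e2, ne_eq, e3, e4, e5, e6]
  obtain ⟨hg, hdet⟩ := eta_SL25 g
  have h2 := tauM_eq _ _ _ _ hdet
  rw [← hg] at h2
  rw [h1, h2, Matrix.trace_fin_two]

theorem aut_zz (φ : MulAut SL25) : φ zz = zz := by
  apply invol_unique
  · rw [← map_mul]
    have h : zz * zz = 1 := by decide +kernel
    rw [h, map_one]
  · intro h
    have h1 : zz = 1 := by
      have := congrArg φ.symm h
      simpa using this
    revert h1
    decide +kernel

theorem tau_aut (φ : MulAut SL25) (g : SL25) : tau (φ g) = tau g := by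
  unfold tau
  have hz := aut_zz φ
  have e1 : (φ g * φ g = zz) ↔ (g * g = zz) := by
    rw [← map_mul]
    constructor
    · intro h
      rw [← hz] at h
      exact φ.injective h
    · intro h
      rw [h, hz]
  have e2 : ∀ k : ℕ, (φ g ^ k = 1) ↔ (g ^ k = 1) := by
    intro k
    rw [← map_pow, MulEquiv.map_eq_one_iff]
  have e3 : (φ g = 1) ↔ (g = 1) := MulEquiv.map_eq_one_iff φ
  have e4 : zz * φ g = φ (zz * g) := by rw [map_mul, hz]
  have e5 : ((zz * φ g) ^ 3 = 1) ↔ ((zz * g) ^ 3 = 1) := by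
    rw [e4, ← map_pow, MulEquiv.map_eq_one_iff]
  have e6 : (zz * φ g = 1) ↔ (zz * g = 1) := by
    rw [e4, MulEquiv.map_eq_one_iff]
  simp only [e1, e2, ne_eq, e3, e5, e6]

theorem trace_aut (φ : MulAut SL25) (g : SL25) : (φ g).1.trace = g.1.trace := by
  rw [← tau_eq, ← tau_eq, tau_aut]

theorem closure_XY : Subgroup.closure ({X₅ * Y₅, X₅} : Set SL25) = ⊤ := by
  have hp : Fact (Nat.Prime 5) := ⟨by norm_num⟩
  have hx : X₅ ∈ Subgroup.closure ({X₅ * Y₅, X₅} : Set SL25) :=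
    Subgroup.subset_closure (by simp)
  have hxy : X₅ * Y₅ ∈ Subgroup.closure ({X₅ * Y₅, X₅} : Set SL25) :=
    Subgroup.subset_closure (by simp)
  have hy : Y₅ ∈ Subgroup.closure ({X₅ * Y₅, X₅} : Set SL25) := by
    have h := mul_mem (inv_mem hx) hxy
    simpa using h
  apply Cfsg.Agent.Lib.Helper5.eq_top_of_transvection_mem
  intro i j hij c
  fin_cases i <;> fin_cases j
  · exact absurd rfl hij
  · have h := trans01 c
    have h' : Matrix.SpecialLinearGroup.transvection hij c = Y₅ ^ c.val := h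
    rw [h']
    exact pow_mem hy _
  · have h := trans10 c
    have h' : Matrix.SpecialLinearGroup.transvection hij c
        = (X₅ * Y₅) * Y₅ ^ (-c).val * (X₅ * Y₅) ^ 3 := h
    rw [h']
    exact mul_mem (mul_mem hxy (pow_mem hy _)) (pow_mem hxy _)
  · exact absurd rfl hij

theorem XY_trace : (X₅ * Y₅).1.trace = 0 := by decide +kernel

theorem XYX_trace : X₅.1.trace ^ 2 + ((X₅ * Y₅) * X₅).1.trace ^ 2 ≠ 4 := by decide +kernel

theorem two_ne_zero_zmod5 : (2 : ZMod 5) ≠ 0 := by decide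

theorem exists_gl (φ : MulAut SL25) :
    ∃ g : GL (Fin 2) (ZMod 5), ∀ X : SL25,
      (g : Matrix (Fin 2) (Fin 2) (ZMod 5)) * X.1
        = (φ X).1 * (g : Matrix (Fin 2) (Fin 2) (ZMod 5)) := by
  have hp : Fact (Nat.Prime 5) := ⟨by norm_num⟩
  have hA : (X₅ * Y₅).1.trace = 0 := XY_trace
  have hne : X₅.1.trace ^ 2 + ((X₅ * Y₅) * X₅).1.trace ^ 2 ≠ 4 := XYX_trace
  obtain ⟨c, hc, hcA, hcB⟩ := Cfsg.Agent.Lib.Helper41.rigid (F := ZMod 5) two_ne_zero_zmod5
    (X₅ * Y₅) X₅ (φ (X₅ * Y₅)) (φ X₅)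
    hA (by rw [trace_aut, hA]) (trace_aut φ X₅) (by rw [← map_mul, trace_aut]) hne
  have hinv : c⁻¹ * c = 1 := Matrix.nonsing_inv_mul _ (isUnit_iff_ne_zero.mpr hc)
  have hinv' : c * c⁻¹ = 1 := Matrix.mul_nonsing_inv _ (isUnit_iff_ne_zero.mpr hc)
  obtain ⟨ψ, hψ⟩ : ∃ ψ : MulAut SL25, ψ = Cfsg.Agent.Lib.Helper41.conjSL c hc := ⟨_, rfl⟩
  have hψv : ∀ X : SL25, (ψ X).1 = c * X.1 * c⁻¹ := by
    intro X
    rw [hψ]
    rfl
  have hψA : ψ (X₅ * Y₅) = φ (X₅ * Y₅) := by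
    apply Subtype.ext
    rw [hψv, hcA, Matrix.mul_assoc, hinv', Matrix.mul_one]
  have hψB : ψ X₅ = φ X₅ := by
    apply Subtype.ext
    rw [hψv, hcB, Matrix.mul_assoc, hinv', Matrix.mul_one]
  have heq : ψ.toMonoidHom = φ.toMonoidHom := by
    apply MonoidHom.eq_of_eqOn_dense closure_XY
    intro x hx
    rcases hx with rfl | rfl
    · exact hψA
    · exact hψB
  refine ⟨Matrix.GeneralLinearGroup.mkOfDetNeZero c hc, fun X => ?_⟩
  have h1 : (φ X).1 = c * X.1 * c⁻¹ := by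
    have h := DFunLike.congr_fun heq X
    have h' : ψ X = φ X := h
    rw [← h', hψv]
  rw [h1]
  show c * X.1 = c * X.1 * c⁻¹ * c
  rw [Matrix.mul_assoc, hinv, Matrix.mul_one]

/-- **[AUT]** the automorphism group of `SL(2,5)` has order at most `120` -/
theorem card_mulAut_SL25_le : Nat.card (MulAut SL25) ≤ 120 := by
  classical
  have hp : Fact (Nat.Prime 5) := ⟨by norm_num⟩
  choose gφ hgφ using exists_gl
  let S : (ZMod 5)ˣ →* GL (Fin 2) (ZMod 5) := Units.map (Matrix.scalar (Fin 2)).toMonoidHom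
  have hSv : ∀ u : (ZMod 5)ˣ, ((S u : GL (Fin 2) (ZMod 5)) : Matrix (Fin 2) (Fin 2) (ZMod 5))
      = Matrix.scalar (Fin 2) (u : ZMod 5) := fun u => rfl
  have hS : ∀ (u : (ZMod 5)ˣ) (M : Matrix (Fin 2) (Fin 2) (ZMod 5)),
      ((S u : GL (Fin 2) (ZMod 5)) : Matrix (Fin 2) (Fin 2) (ZMod 5)) * M
        = M * ((S u : GL (Fin 2) (ZMod 5)) : Matrix (Fin 2) (Fin 2) (ZMod 5)) := by
    intro u M
    rw [hSv]
    exact (Matrix.scalar_commute _ (fun r => Commute.all _ _) M).eq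
  let f : MulAut SL25 × (ZMod 5)ˣ → GL (Fin 2) (ZMod 5) := fun x => S x.2 * gφ x.1
  have hf1 : ∀ (x : MulAut SL25 × (ZMod 5)ˣ) (X : SL25),
      ((f x : GL (Fin 2) (ZMod 5)) : Matrix (Fin 2) (Fin 2) (ZMod 5)) * X.1
        = (x.1 X).1 * ((f x : GL (Fin 2) (ZMod 5)) : Matrix (Fin 2) (Fin 2) (ZMod 5)) := by
    intro x X
    show ((S x.2 : GL (Fin 2) (ZMod 5)) : Matrix (Fin 2) (Fin 2) (ZMod 5))
        * ((gφ x.1 : GL (Fin 2) (ZMod 5)) : Matrix (Fin 2) (Fin 2) (ZMod 5)) * X.1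
      = (x.1 X).1 * (((S x.2 : GL (Fin 2) (ZMod 5)) : Matrix (Fin 2) (Fin 2) (ZMod 5))
        * ((gφ x.1 : GL (Fin 2) (ZMod 5)) : Matrix (Fin 2) (Fin 2) (ZMod 5)))
    rw [Matrix.mul_assoc, hgφ, ← Matrix.mul_assoc, ← Matrix.mul_assoc, hS]
  have hinj : Function.Injective f := by
    rintro ⟨φ, u⟩ ⟨ψ, w⟩ h
    have h1 : φ = ψ := by
      apply MulEquiv.ext
      intro X
      have e1 := hf1 (φ, u) X
      have e2 := hf1 (ψ, w) X
      rw [h] at e1
      have e3 : (φ X).1 * ((f (ψ, w) : GL (Fin 2) (ZMod 5)) : Matrix (Fin 2) (Fin 2) (ZMod 5))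
          = (ψ X).1 * ((f (ψ, w) : GL (Fin 2) (ZMod 5)) : Matrix (Fin 2) (Fin 2) (ZMod 5)) := by
        rw [← e1, ← e2]
      exact Subtype.ext ((Units.mul_left_inj _).mp e3)
    subst h1
    have h2 : S u = S w := mul_right_cancel h
    have h3 : u = w := by
      apply Units.ext
      have h4 := congrArg
        (fun g : GL (Fin 2) (ZMod 5) => (g : Matrix (Fin 2) (Fin 2) (ZMod 5)) 0 0) h2
      simpa [hSv] using h4
    rw [h3]
  have hcard := Nat.card_le_card_of_injective f hinj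
  rw [Nat.card_prod, Matrix.card_GL_field] at hcard
  have h4 : Nat.card (ZMod 5)ˣ = 4 := by
    rw [Nat.card_eq_fintype_card, ZMod.card_units]
  have h5 : ∏ i : Fin 2, (Fintype.card (ZMod 5) ^ 2 - Fintype.card (ZMod 5) ^ (i : ℕ)) = 480 := by
    rw [ZMod.card]
    simp [Fin.prod_univ_two]
  rw [h4, h5] at hcard
  omega

theorem pkgAut : PkgAut := card_mulAut_SL25_le

end Cfsg.Agent.Lib.Helper77.NF3
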