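import Mathlib
import Cfsg.Agent.Lib.Helper77.NF3.Asm
import Cfsg.Agent.Lib.Helper77.NF3.Aut
import Cfsg.Agent.Lib.Helper35.NF3.Res
import Cfsg.Agent.Lib.Helper35.NF3.Fld
import Cfsg.Agent.Lib.Helper22.NF3.Idx
import Cfsg.Agent.Lib.Helper22.NF3.Fin
import Cfsg.Agent.Lib.Helper26.NF3.Card
import Cfsg.Agent.Lib.Helper26.NF3.Dim
import Cfsg.Agent.Lib.Helper32.NF3.Num
import Cfsg.Agent.Lib.Helper1.NF3.No3

set_option autoImplicit false

/-! The conditional core of S0689: the statement of S0689 from the statement of S0690. -/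

namespace Cfsg.Agent.Lib.Helper77.NF3

universe u

/-- S0689 from the hub `HubZ` (the literal statement of S0690). -/
theorem s0689_core (hub : HubZ.{u})
    {p : ℕ} [Fact p.Prime] {V : Type u} [AddCommGroup V] [Module (ZMod p) V] [Finite V]
    (H : Subgroup (V ≃ₗ[ZMod p] V))
    (hreg : ∀ v w : V, v ≠ 0 → w ≠ 0 → ∃! h : H, (h : V ≃ₗ[ZMod p] V) v = w)
    (hsolv : ¬ Group.IsSolvable H) :
    (Nat.card V = 121 ∧ Nonempty (H ≃* Matrix.SpecialLinearGroup (Fin 2) (ZMod 5))) ∨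
    (Nat.card V = 841 ∧
      Nonempty (H ≃* Matrix.SpecialLinearGroup (Fin 2) (ZMod 5) × Multiplicative (ZMod 7))) ∨
    (Nat.card V = 3481 ∧
      Nonempty (H ≃* Matrix.SpecialLinearGroup (Fin 2) (ZMod 5) × Multiplicative (ZMod 29))) :=
  s0689_of hub pkgAut Cfsg.Agent.Lib.Helper26.NF3.pkgCard Cfsg.Agent.Lib.Helper35.NF3.pkgRes
    Cfsg.Agent.Lib.Helper35.NF3.pkgFld Cfsg.Agent.Lib.Helper26.NF3.pkgDim
    (Cfsg.Agent.Lib.Helper22.NF3.pkgIdx card_center_SL25)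
    (Cfsg.Agent.Lib.Helper1.NF3.pkgNo3 card_center_SL25)
    Cfsg.Agent.Lib.Helper32.NF3.pkgNum
    (Cfsg.Agent.Lib.Helper22.NF3.pkgFin card_center_SL25) H hreg hsolv

end Cfsg.Agent.Lib.Helper77.NF3
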